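import Cfsg.Agent.H596.L8.Defs

/-!
# K4 of `H596/L8/Defs` (helper498): roots of `E₈`
-/

set_option autoImplicit false
set_option maxRecDepth 100000

namespace Cfsg.Agent.H498.L8

open Cfsg CoxeterSystem Cfsg.Agent.ChevalleyStructure.CoxeterGeom Cfsg.Agent.Tits.Roots Cfsg.Agent.Tits.Core
  Cfsg.Agent.Tits.RootComb Cfsg.Agent.Nodes.Reps Cfsg.Agent.Nodes.BNOf
  Cfsg.Agent.Nodes.StabComb Cfsg.Agent.Nodes.Bruhat Cfsg.Agent.Nodes.LeviDec Cfsg.Agent.H35.Poin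
  Cfsg.Agent.H35.PoinNum Cfsg.Agent.H35.ExcIdx
  Cfsg.Agent.ChevalleyStructure.CoxeterGeomTypes Cfsg.Lie
open Cfsg.Agent.Nodes.RGDChev Cfsg.Agent.ChevalleyStructure.NPerm Cfsg.Agent.H596.L8

/-- the Cartan matrix -/
def cA : Fin 8 → Fin 8 → ℤ := ![![2, 0, -1, 0, 0, 0, 0, 0], ![0, 2, 0, -1, 0, 0, 0, 0], ![-1, 0, 2, -1, 0, 0, 0, 0],
  ![0, -1, -1, 2, -1, 0, 0, 0], ![0, 0, 0, -1, 2, -1, 0, 0], ![0, 0, 0, 0, -1, 2, -1, 0], ![0, 0, 0, 0, 0, -1, 2, -1],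
  ![0, 0, 0, 0, 0, 0, -1, 2]]

theorem cA_eq : cartanOf chevE8 8 = cA := by
  funext i j
  revert i j
  decide +kernel

/-- the pairing with a simple root -/
def pr (i : Fin 8) (x : Fin 8 → ℤ) : ℤ := pairing (cartanOf chevE8 8) i x

theorem pr_eq (x : Fin 8 → ℤ) : pr 0 x = 2 * x 0 - x 2 ∧ pr 1 x = 2 * x 1 - x 3 ∧ pr 2 x = 2 * x 2 - x 0 - x 3 ∧
    pr 3 x = 2 * x 3 - x 1 - x 2 - x 4 ∧ pr 4 x = 2 * x 4 - x 3 - x 5 ∧ pr 5 x = 2 * x 5 - x 4 - x 6 ∧
    pr 6 x = 2 * x 6 - x 5 - x 7 ∧ pr 7 x = 2 * x 7 - x 6 := by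
  unfold pr pairing
  rw [cA_eq]
  simp only [Fin.sum_univ_eight, cA, Matrix.cons_val]
  refine ⟨?_, ?_, ?_, ?_, ?_, ?_, ?_, ?_⟩ <;> ring

/-- the invariant form -/
def B (x y : Fin 8 → ℤ) : ℤ := ∑ i, y i * pr i x

theorem B_eq (x y : Fin 8 → ℤ) : B x y = y 0 * (2 * x 0 - x 2) + y 1 * (2 * x 1 - x 3) + y 2 * (2 * x 2 - x 0 - x 3) +
    y 3 * (2 * x 3 - x 1 - x 2 - x 4) + y 4 * (2 * x 4 - x 3 - x 5) + y 5 * (2 * x 5 - x 4 - x 6) +
    y 6 * (2 * x 6 - x 5 - x 7) + y 7 * (2 * x 7 - x 6) := by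
  obtain ⟨h0, h1, h2, h3, h4, h5, h6, h7⟩ := pr_eq x
  unfold B
  rw [Fin.sum_univ_eight, h0, h1, h2, h3, h4, h5, h6, h7]

theorem B_comm (x y : Fin 8 → ℤ) : B x y = B y x := by
  rw [B_eq, B_eq]; ring

theorem B_sr (x : Fin 8 → ℤ) (i : Fin 8) : B x (sr i) = pr i x := by
  unfold B
  rw [Finset.sum_eq_single i]
  · rw [sr_self, one_mul]
  · intro j _ hj
    rw [sr_ne hj, zero_mul]
  · intro h; exact absurd (Finset.mem_univ i) h

theorem B_sub_smul (x y z : Fin 8 → ℤ) (a : ℤ) : B x (y - a • z) = B x y - a * B x z := by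
  rw [B_eq, B_eq, B_eq]
  simp only [Pi.sub_apply, Pi.smul_apply, smul_eq_mul]
  ring

theorem pr_sr_self (i : Fin 8) : pr i (sr i) = 2 := by
  have h : ∀ i : Fin 8, cA i i = 2 := by decide
  unfold pr pairing
  rw [cA_eq, Finset.sum_eq_single i]
  · rw [sr_self, h]; rfl
  · intro j _ hj
    rw [sr_ne hj, mul_zero]
  · intro h; exact absurd (Finset.mem_univ i) h

/-- the Coxeter system -/
abbrev cs : CoxeterSystem CoxeterMatrix.E₈ CoxeterMatrix.E₈.Group := CoxeterMatrix.E₈.toCoxeterSystem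

theorem hc : IsCartan CoxeterMatrix.E₈ (cartanOf chevE8 8) := hpE8.isCartan

theorem B_simple (i : Fin 8) (x y : Fin 8 → ℤ) :
    B (rep cs hc (cs.simple i) x) (rep cs hc (cs.simple i) y) = B x y := by
  rw [rep_simple_eq, rep_simple_eq]
  change B (x - pr i x • sr i) (y - pr i y • sr i) = _
  rw [B_sub_smul, B_comm _ y, B_comm _ (sr i), B_sub_smul, B_sub_smul, B_sr, B_comm (sr i) x, B_sr, B_sr, pr_sr_self,
    B_comm y x]
  ring

theorem B_rep (w : CoxeterMatrix.E₈.Group) (x y : Fin 8 → ℤ) : B (rep cs hc w x) (rep cs hc w y) = B x y := by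
  obtain ⟨ω, rfl⟩ := cs.wordProd_surjective w
  induction ω generalizing x y with
  | nil => rw [wordProd_nil, map_one, Module.End.one_apply, Module.End.one_apply]
  | cons i ω ih => rw [wordProd_cons, rep_mul_apply, rep_mul_apply, B_simple, ih]

/-- the sum of the five roots -/
def lam : Fin 8 → ℤ := ![6, 9, 12, 18, 15, 10, 5, 0]

/-- the highest root -/
def om : Fin 8 → ℤ := ![2, 3, 4, 6, 5, 4, 3, 2]

/-- the five roots -/
def rr : Fin 5 → chevE8.Idx := ![Sum.inr ⟨200, by decide +kernel⟩, Sum.inr ⟨210, by decide +kernel⟩,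
  Sum.inr ⟨214, by decide +kernel⟩, Sum.inr ⟨219, by decide +kernel⟩, Sum.inr ⟨226, by decide +kernel⟩]

theorem inR_rr : ∀ i, InR 1 (rr i) := by decide +kernel

theorem sum_rr : ∑ i, dg (rr i) = lam := by decide +kernel

theorem diff_rr : dg (rr 4) - dg (rr 3) = sr 0 ∧ dg (rr 1) - dg (rr 0) = sr 1 ∧ dg (rr 3) - dg (rr 2) = sr 2 ∧
    dg (rr 2) - dg (rr 1) = sr 3 := by decide +kernel

/-- roots of `E₇` orthogonal to `A₄` -/
theorem orth_dec : ∀ r : Fin 240, vec chevE8 8 r 7 = 0 → (∀ k : Fin 8, (k : ℕ) < 4 → chevE8.cartan k r = 0) →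
    ∑ i : Fin 8, vec chevE8 8 r i * (![0, 0, 0, 0, 2, 0, 0, -5] : Fin 8 → ℤ) i = 0 := by decide +kernel

theorem B_lam (y : Fin 8 → ℤ) : B lam y = 2 * y 4 - 5 * y 7 := by
  rw [B_eq]
  have h : lam 0 = 6 ∧ lam 1 = 9 ∧ lam 2 = 12 ∧ lam 3 = 18 ∧ lam 4 = 15 ∧ lam 5 = 10 ∧ lam 6 = 5 ∧ lam 7 = 0 :=
    ⟨rfl, rfl, rfl, rfl, rfl, rfl, rfl, rfl⟩
  obtain ⟨h0, h1, h2, h3, h4, h5, h6, h7⟩ := h
  rw [h0, h1, h2, h3, h4, h5, h6, h7]
  ring

/-- a root of `E₇` orthogonal to `A₄` is orthogonal to `lam` -/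
theorem B_lam_zero {y : Fin 8 → ℤ} (hy : IsRoot cs hc y) (h7 : y 7 = 0) (h : ∀ k : Fin 8, (k : ℕ) < 4 → pr k y = 0) :
    B lam y = 0 := by
  obtain ⟨r, hr, rfl⟩ := (isRoot_iff hpE8 cs y).1 hy
  have hr' : r < 240 := hr
  have h1 := orth_dec ⟨r, hr'⟩ h7 (fun k hk => by
    have h2 := h k hk
    unfold pr at h2
    rwa [pairing_vec hpE8 k hr] at h2)
  rw [B_lam]
  rw [Fin.sum_univ_eight] at h1
  simp only [Matrix.cons_val] at h1
  omega

/-- the roots of `A₄` -/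
def FF : Set (Fin 8 → ℤ) := {x | IsRoot cs hc x ∧ x 4 = 0 ∧ x 5 = 0 ∧ x 6 = 0 ∧ x 7 = 0}

theorem eq_sum (x : Fin 8 → ℤ) : x = ∑ i, x i • sr i := by
  funext k
  rw [Finset.sum_apply, Finset.sum_eq_single k]
  · rw [Pi.smul_apply, sr_self, smul_eq_mul, mul_one]
  · intro j _ hj
    rw [Pi.smul_apply, sr_ne hj.symm, smul_zero]
  · intro h; exact absurd (Finset.mem_univ k) h

/-- an element which keeps the four simple roots in `FF` keeps `FF` -/
theorem FF_act {v : CoxeterMatrix.E₈.Group} (hv : ∀ k : Fin 8, (k : ℕ) < 4 → rep cs hc v (sr k) ∈ FF)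
    {x : Fin 8 → ℤ} (hx : x ∈ FF) : rep cs hc v x ∈ FF := by
  obtain ⟨h0, h4, h5, h6, h7⟩ := hx
  have h1 : x = x 0 • sr 0 + x 1 • sr 1 + x 2 • sr 2 + x 3 • sr 3 := by
    conv_lhs => rw [eq_sum x]
    rw [Fin.sum_univ_eight, h4, h5, h6, h7]
    simp only [zero_smul, add_zero]
  have h2 : rep cs hc v x = x 0 • rep cs hc v (sr 0) + x 1 • rep cs hc v (sr 1) + x 2 • rep cs hc v (sr 2) +
      x 3 • rep cs hc v (sr 3) := by
    conv_lhs => rw [h1]
    rw [map_add, map_add, map_add, map_smul, map_smul, map_smul, map_smul]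
  obtain ⟨-, a4, a5, a6, a7⟩ := hv 0 (by decide)
  obtain ⟨-, b4, b5, b6, b7⟩ := hv 1 (by decide)
  obtain ⟨-, c4, c5, c6, c7⟩ := hv 2 (by decide)
  obtain ⟨-, d4, d5, d6, d7⟩ := hv 3 (by decide)
  refine ⟨h0.act v, ?_, ?_, ?_, ?_⟩ <;> rw [h2] <;> simp only [Pi.add_apply, Pi.smul_apply, smul_eq_mul]
  · rw [a4, b4, c4, d4]; ring
  · rw [a5, b5, c5, d5]; ring
  · rw [a6, b6, c6, d6]; ring
  · rw [a7, b7, c7, d7]; ring

theorem FF_pow {v : CoxeterMatrix.E₈.Group} (hv : ∀ k : Fin 8, (k : ℕ) < 4 → rep cs hc v (sr k) ∈ FF) (m : ℕ)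
    {x : Fin 8 → ℤ} (hx : x ∈ FF) : rep cs hc (v ^ m) x ∈ FF := by
  induction m with
  | zero => rw [pow_zero, map_one, Module.End.one_apply]; exact hx
  | succ m ih => rw [pow_succ', rep_mul_apply]; exact FF_act hv ih

theorem FF_inv {v : CoxeterMatrix.E₈.Group} (hv : ∀ k : Fin 8, (k : ℕ) < 4 → rep cs hc v (sr k) ∈ FF)
    {x : Fin 8 → ℤ} (hx : x ∈ FF) : rep cs hc v⁻¹ x ∈ FF := by
  have : Finite CoxeterMatrix.E₈.Group := finite_W hpE8 cs
  obtain ⟨m, hm, e⟩ := (isOfFinOrder_of_finite v).exists_pow_eq_one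
  have h1 : v⁻¹ = v ^ (m - 1) := by
    rw [inv_eq_iff_mul_eq_one, ← pow_succ', Nat.sub_add_cancel hm, e]
  rw [h1]
  exact FF_pow hv _ hx

/-- vectors of `FF` are orthogonal to what is orthogonal to `A₄` -/
theorem B_FF {x y : Fin 8 → ℤ} (hx : ∀ k : Fin 8, (k : ℕ) < 4 → pr k x = 0) (hy : y ∈ FF) : B x y = 0 := by
  obtain ⟨-, h4, h5, h6, h7⟩ := hy
  unfold B
  rw [Fin.sum_univ_eight, hx 0 (by decide), hx 1 (by decide), hx 2 (by decide), hx 3 (by decide), h4, h5, h6, h7]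
  ring

theorem sr_FF {k : Fin 8} (hk : (k : ℕ) < 4) : (sr k : Fin 8 → ℤ) ∈ FF := by
  refine ⟨isRoot_sr cs hc k, ?_, ?_, ?_, ?_⟩ <;> refine sr_ne ?_ <;> rintro rfl <;> exact absurd hk (by decide)

theorem dg_rt {i : chevE8.Idx} (hi : InR 1 i) : IsRoot cs hc (dg i) := by
  rcases i with i | r
  · exact absurd hi.1 (by change ¬ (0 : ℤ) = 3 * 1; decide)
  · exact isRoot_vec hpE8 cs r.2

/-- **K4** -/
theorem k4 : K4 := by
  intro w hw hR
  set v := w⁻¹ with hvdef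
  have hwv : w = v⁻¹ := by rw [hvdef, inv_inv]
  have hv7 : v ∈ WJ cs {i : Fin 8 | i ≠ 7} := inv_mem hw
  have h7 : ∀ x : Fin 8 → ℤ, rep cs hc v x 7 = x 7 := fun x =>
    rep_apply_of_mem cs hc hv7 x (fun h : (7 : Fin 8) ≠ 7 => h rfl)
  have hw7 : ∀ x : Fin 8 → ℤ, rep cs hc w x 7 = x 7 := fun x =>
    rep_apply_of_mem cs hc hw x (fun h : (7 : Fin 8) ≠ 7 => h rfl)
  -- the differences
  have hd : ∀ i j : Fin 5, ∀ k : Fin 8, dg (rr i) - dg (rr j) = sr k → rep cs hc v (sr k) ∈ FF := by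
    intro i j k e
    have e4 := hR 4 (by simp) _ _ (inR_rr i) (inR_rr j)
    have e5 := hR 5 (by simp) _ _ (inR_rr i) (inR_rr j)
    have e6 := hR 6 (by simp) _ _ (inR_rr i) (inR_rr j)
    refine ⟨(isRoot_sr cs hc k).act v, ?_, ?_, ?_, ?_⟩
    · rw [← e, map_sub, Pi.sub_apply, sub_eq_zero]; exact e4
    · rw [← e, map_sub, Pi.sub_apply, sub_eq_zero]; exact e5
    · rw [← e, map_sub, Pi.sub_apply, sub_eq_zero]; exact e6
    · rw [h7, ← e, Pi.sub_apply, (inR_rr i).2.2.2, (inR_rr j).2.2.2, sub_zero]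
  obtain ⟨d0, d1, d2, d3⟩ := diff_rr
  have hv : ∀ k : Fin 8, (k : ℕ) < 4 → rep cs hc v (sr k) ∈ FF := by
    intro k hk
    have h1 : k = 0 ∨ k = 1 ∨ k = 2 ∨ k = 3 := by
      revert k; decide
    rcases h1 with rfl | rfl | rfl | rfl
    · exact hd 4 3 0 d0
    · exact hd 1 0 1 d1
    · exact hd 3 2 2 d2
    · exact hd 2 1 3 d3
  -- adjoint
  have hadj : ∀ x y : Fin 8 → ℤ, B (rep cs hc v x) y = B x (rep cs hc w y) := by
    intro x y
    rw [← B_rep w (rep cs hc v x) y, hwv, rep_inv_apply]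
  have hlam : ∀ k : Fin 8, (k : ℕ) < 4 → pr k lam = 0 := by
    intro k hk
    rw [← B_sr, B_lam]
    obtain ⟨-, h4, -, -, h7'⟩ := sr_FF hk
    rw [h4, h7']; rfl
  set z := rep cs hc v lam with hz
  have hz0 : ∀ k : Fin 8, (k : ℕ) < 4 → pr k z = 0 := by
    intro k hk
    rw [← B_sr, hz, hadj, hwv]
    exact B_FF hlam (FF_inv hv (sr_FF hk))
  have hz1 : ∀ k : Fin 8, k = 5 ∨ k = 6 → pr k z = 0 := by
    intro k hk
    rw [← B_sr, hz, hadj]
    refine B_lam_zero ((isRoot_sr cs hc k).act w) ?_ fun j hj => ?_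
    · rw [hw7]
      refine sr_ne ?_
      rcases hk with rfl | rfl <;> decide
    · rw [← B_sr, B_comm, ← hadj]
      have h1 : B (rep cs hc v (sr j)) (sr k) = B (sr k) (rep cs hc v (sr j)) := B_comm _ _
      rw [h1]
      refine B_FF (fun l hl => ?_) (hv j hj)
      obtain ⟨p0, p1, p2, p3, -⟩ := pr_eq (sr k)
      have h2 : l = 0 ∨ l = 1 ∨ l = 2 ∨ l = 3 := by
        revert l; decide
      rcases h2 with rfl | rfl | rfl | rfl
      · rw [p0]; rcases hk with rfl | rfl <;> rfl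
      · rw [p1]; rcases hk with rfl | rfl <;> rfl
      · rw [p2]; rcases hk with rfl | rfl <;> rfl
      · rw [p3]; rcases hk with rfl | rfl <;> rfl
  obtain ⟨q0, q1, q2, q3, q4, q5, q6, q7⟩ := pr_eq z
  have g0 := hz0 0 (by decide)
  have g1 := hz0 1 (by decide)
  have g2 := hz0 2 (by decide)
  have g3 := hz0 3 (by decide)
  have g5 := hz1 5 (Or.inl rfl)
  have g6 := hz1 6 (Or.inr rfl)
  have g7 : z 7 = 0 := by rw [hz, h7]; rfl
  have hB : B z z = 30 := by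
    rw [hz, B_rep, B_lam]; rfl
  obtain ⟨t, ht⟩ : ∃ t : ℤ, t = z 0 - z 6 := ⟨_, rfl⟩
  have k0 : z 0 = 6 * t := by omega
  have k1 : z 1 = 9 * t := by omega
  have k2 : z 2 = 12 * t := by omega
  have k3 : z 3 = 18 * t := by omega
  have k4 : z 4 = 15 * t := by omega
  have k5 : z 5 = 10 * t := by omega
  have k6 : z 6 = 5 * t := by omega
  have ht2 : t * t = 1 := by
    rw [B_eq, k0, k1, k2, k3, k4, k5, k6, g7] at hB
    nlinarith [hB]
  have ht3 : t = 1 ∨ t = -1 := by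
    have : (t - 1) * (t + 1) = 0 := by ring_nf; linarith [ht2]
    rcases mul_eq_zero.1 this with h | h
    · left; omega
    · right; omega
  rcases ht3 with rfl | rfl
  · -- the parabolic subgroup
    left
    have hzl : rep cs hc v lam = lam := by
      rw [← hz]
      funext i
      have : i = 0 ∨ i = 1 ∨ i = 2 ∨ i = 3 ∨ i = 4 ∨ i = 5 ∨ i = 6 ∨ i = 7 := by revert i; decide
      rcases this with rfl | rfl | rfl | rfl | rfl | rfl | rfl | rfl
      · rw [k0]; rfl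
      · rw [k1]; rfl
      · rw [k2]; rfl
      · rw [k3]; rfl
      · rw [k4]; rfl
      · rw [k5]; rfl
      · rw [k6]; rfl
      · rw [g7]; rfl
    have hom : rep cs hc v om = om := by
      refine rep_of_mem_WJ_orth (cs := cs) (h := hc) (Subgroup.closure_mono ?_ hv7)
      rintro _ ⟨i, hi, rfl⟩
      refine ⟨i, ?_, rfl⟩
      rw [mem_orth]
      change pr i om = 0
      obtain ⟨o0, o1, o2, o3, o4, o5, o6, o7⟩ := pr_eq om
      have hi' : i = 0 ∨ i = 1 ∨ i = 2 ∨ i = 3 ∨ i = 4 ∨ i = 5 ∨ i = 6 := by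
        have : i ≠ 7 := hi
        revert i; decide
      rcases hi' with rfl | rfl | rfl | rfl | rfl | rfl | rfl
      · rw [o0]; rfl
      · rw [o1]; rfl
      · rw [o2]; rfl
      · rw [o3]; rfl
      · rw [o4]; rfl
      · rw [o5]; rfl
      · rw [o6]; rfl
    have hsum : rep cs hc v (lam + (5 : ℤ) • om) = lam + (5 : ℤ) • om := by
      rw [map_add, map_smul, hzl, hom]
    obtain ⟨o0, o1, o2, o3, o4, o5, o6, o7⟩ := pr_eq (lam + (5 : ℤ) • om)
    have hdom : Dom (cartanOf chevE8 8) (lam + (5 : ℤ) • om) := by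
      intro i
      change 0 ≤ pr i _
      have : i = 0 ∨ i = 1 ∨ i = 2 ∨ i = 3 ∨ i = 4 ∨ i = 5 ∨ i = 6 ∨ i = 7 := by revert i; decide
      rcases this with rfl | rfl | rfl | rfl | rfl | rfl | rfl | rfl
      · rw [o0]; decide
      · rw [o1]; decide
      · rw [o2]; decide
      · rw [o3]; decide
      · rw [o4]; decide
      · rw [o5]; decide
      · rw [o6]; decide
      · rw [o7]; decide
    have : Finite CoxeterMatrix.E₈.Group := finite_W hpE8 cs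
    have hvm := mem_WJ_of_rep (cs := cs) (h := hc) hdom hsum
    rw [hwv]
    refine inv_mem (Subgroup.closure_mono ?_ hvm)
    rintro _ ⟨i, hi, rfl⟩
    refine ⟨i, ?_, rfl⟩
    rintro rfl
    rw [mem_orth] at hi
    change pr 4 _ = 0 at hi
    rw [o4] at hi
    revert hi
    decide
  · -- the negative
    right
    intro i j hi hj
    change dg j = rep cs hc v (dg i) at hj
    have key : ∀ k : Fin 8, k = 4 ∨ k = 5 ∨ k = 6 → 5 * rep cs hc v (dg i) k = z k := by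
      intro k hk
      have hk' : k ∈ ({4, 5, 6} : Set (Fin 8)) := by
        rcases hk with rfl | rfl | rfl <;> simp
      rw [hz, ← sum_rr, map_sum, Finset.sum_apply,
        Finset.sum_congr rfl (fun l _ => (hR k hk' _ _ (inR_rr l) hi : rep cs hc v (dg (rr l)) k = rep cs hc v (dg i) k)),
        Finset.sum_const, Finset.card_univ, Fintype.card_fin, nsmul_eq_mul]
      rfl
    have m4 := key 4 (Or.inl rfl)
    have m5 := key 5 (Or.inr (Or.inl rfl))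
    have m6 := key 6 (Or.inr (Or.inr rfl))
    rw [k4] at m4
    rw [k5] at m5
    rw [k6] at m6
    refine ⟨?_, ?_, ?_, ?_⟩
    · rw [hj]; omega
    · rw [hj]; omega
    · rw [hj]; omega
    · rw [hj, h7, hi.2.2.2]

end Cfsg.Agent.H498.L8
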